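import Cfsg.Agent.Lib.PermComp.Spor.J3.Thm
import Cfsg.Prelude.Def_Classical
import Cfsg.Prelude.Def_Sporadic

/-!
# The group `3.J3` in the special unitary group

The generators of the coset table preserve the Hermitian form: they satisfy `Aᵀ * Ā = 1`.  The
determinant is trivial, because the image is simple and the kernel consists of scalars of order
three in dimension nine.
-/

namespace Cfsg.Agent.Lib.PermComp.Spor.J3

open Cfsg.Agent.Lib.PermComp Cfsg.Agent.Lib.PermComp.Kron Subgroup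
open _root_.Cfsg.Agent.Lib.PermComp.Core (force force_eq app ifB ifB_eq_true nthN)

set_option maxHeartbeats 1000000
set_option linter.unusedSectionVars false

def tLs : List Nat := [nat_lit 0x10802000000080010800000001000200802100020000000802100000000200042000000000210800008000084000000000001, nat_lit 0x10000000000000000000000000000000000000400000000000000000000000000000000000000000000000000000040000000000000000000020000000000000001000000002000000000000800000000000000040000000080000000000020]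
def cRs : List Nat := [nat_lit 0x802100000000000000008400080000000000020080010000000000000000002000420000000000000001080200000000000000210002000000000000002108000000000000000001080000800000000000010000000000, nat_lit 0x1000000000000000000000000000000000000000000000000000000000001000000000000000000000000000000000000000000000000000000000000000000000000000000000000000000000000040000000000000000000000080000000000000000000800000000000000040000000000000000000000000000000000000000000800000000000000040000000000000000000000080000000000000000000800000000]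

theorem su_ok : ∀ j < 2, fJ3.vL (nthN tLs j) = true ∧ fJ3.vR (nthN cRs j) = true ∧
    fJ3.chkP (nthN tLs j) (nthN cRs j) fJ3.IL fJ3.IR = true := by decide +kernel

theorem su_T : ∀ j < 2, ∀ i < 9, ∀ k < 9,
    D 32 (Nat.land (nthN tLs j) fJ3.mL) (i * 9 + k) = D 32 (Nat.land (nthN sLs j) fJ3.mL) (k * 9 + i) ∧
    D 32 (Nat.shiftRight (nthN tLs j) fJ3.wL) (i * 9 + k) =
      D 32 (Nat.shiftRight (nthN sLs j) fJ3.wL) (k * 9 + i) := by decide +kernel

theorem su_C : ∀ j < 2, ∀ k < 9, ∀ l < 9,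
    D 32 (Nat.land (nthN cRs j) fJ3.mR) (pJ3.pos k l) = (D 32 (Nat.land (nthN sLs j) fJ3.mL) (k * 9 + l) +
      D 32 (Nat.shiftRight (nthN sLs j) fJ3.wL) (k * 9 + l)) % 2 ∧
    D 32 (Nat.shiftRight (nthN cRs j) fJ3.wR) (pJ3.pos k l) =
      D 32 (Nat.shiftRight (nthN sLs j) fJ3.wL) (k * 9 + l) := by decide +kernel

theorem x_tab : T1.tab 0 0 = 1 := by decide +kernel

theorem x_inv : nthN sIRs 0 = nthN sRs 0 := by decide +kernel

variable {F : Type*} [Field F] {ω : F}

local notation "M" => Matrix (Fin fJ3.P.d) (Fin fJ3.P.d) F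

theorem val_sq (h2 : (2 : F) = 0) (hω : ω ^ 2 + ω + 1 = 0) {a0 a1 : ℕ} (h0 : a0 ≤ 1) (h1 : a1 ≤ 1) :
    (val ω a0 a1) ^ 2 = val ω ((a0 + a1) % 2) a1 := by
  have hs : ω ^ 2 = 1 + ω := by linear_combination hω - (1 + ω) * h2
  interval_cases a0 <;> interval_cases a1 <;> simp [val, hs]
  linear_combination (1 + ω) * h2 + hs

/-- A matrix with `Aᵀ * Ā = 1` preserves the Hermitian form. -/
theorem preserve_of (h2 : (2 : F) = 0) {n : ℕ} (A : Matrix (Fin n) (Fin n) F)
    (hA : A.transpose * (Matrix.of fun i k => (A i k) ^ 2) = 1) (u v : Fin n → F) :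
    Cfsg.hermForm n F 2 (A.mulVec u) (A.mulVec v) = Cfsg.hermForm n F 2 u v := by
  have : CharP F 2 := CharTwo.of_one_ne_zero_of_two_eq_zero one_ne_zero h2
  let w : Fin n → F := fun i => v i ^ 2
  let B : Matrix (Fin n) (Fin n) F := Matrix.of fun i k => (A i k) ^ 2
  have h1 : ∀ i, (A.mulVec v i) ^ 2 = B.mulVec w i := by
    intro i
    show (∑ k, A i k * v k) ^ 2 = ∑ k, (A i k) ^ 2 * (v k) ^ 2
    rw [sum_pow_char 2]
    simp [mul_pow]
  have h3 : Cfsg.hermForm n F 2 (A.mulVec u) (A.mulVec v) = dotProduct (A.mulVec u) (B.mulVec w) := by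
    unfold Cfsg.hermForm dotProduct
    exact Finset.sum_congr rfl fun i _ => by rw [h1]
  have h4 : Cfsg.hermForm n F 2 u v = dotProduct u w := rfl
  rw [h3, h4, dotProduct_comm, Matrix.dotProduct_mulVec, ← Matrix.mulVec_transpose,
    Matrix.mulVec_mulVec, dotProduct_comm]
  have h5 : A.transpose * B = 1 := hA
  rw [h5, Matrix.one_mulVec]

theorem gen_unitary (h2 : (2 : F) = 0) (hω : ω ^ 2 + ω + 1 = 0) {j : ℕ} (hj : j < 2) :
    (ML ω fJ3 (nthN sLs j) : M).transpose *
      (Matrix.of fun i k => ((ML ω fJ3 (nthN sLs j) : M) i k) ^ 2) = 1 := by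
  obtain ⟨h3, h4, h5⟩ := su_ok j hj
  have hv : fJ3.vL (nthN sLs j) = true := by
    interval_cases j
    · exact (sgen_parts sgen_ok0).1
    · exact (sgen_parts sgen_ok1).1
  have h6 := chkP_sound ω fJ3_good h2 hω h3 h4 fJ3_good.hvIL fJ3_good.hvIR h5
  rw [ML_one ω fJ3_good, MR_one ω fJ3_good, one_mul] at h6
  have e1 : ML ω fJ3 (nthN tLs j) = (ML ω fJ3 (nthN sLs j) : M).transpose := by
    ext i k
    obtain ⟨h7, h8⟩ := su_T j hj i i.2 k k.2
    show val ω (D 32 (Nat.land (nthN tLs j) fJ3.mL) (i * 9 + k))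
      (D 32 (Nat.shiftRight (nthN tLs j) fJ3.wL) (i * 9 + k)) =
      val ω (D 32 (Nat.land (nthN sLs j) fJ3.mL) (k * 9 + i))
      (D 32 (Nat.shiftRight (nthN sLs j) fJ3.wL) (k * 9 + i))
    rw [h7, h8]
  have e2 : MR ω fJ3 (nthN cRs j) = (Matrix.of fun i k => ((ML ω fJ3 (nthN sLs j) : M) i k) ^ 2) := by
    ext k l
    obtain ⟨h7, h8⟩ := su_C j hj k k.2 l l.2
    show val ω (D 32 (Nat.land (nthN cRs j) fJ3.mR) (pJ3.pos k l))
      (D 32 (Nat.shiftRight (nthN cRs j) fJ3.wR) (pJ3.pos k l)) =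
      (val ω (D 32 (Nat.land (nthN sLs j) fJ3.mL) (k * 9 + l))
      (D 32 (Nat.shiftRight (nthN sLs j) fJ3.wL) (k * 9 + l))) ^ 2
    rw [h7, h8]
    exact (val_sq h2 hω ((small_vL fJ3_good hv).1 _) ((small_vL fJ3_good hv).2 _)).symm
  rw [← e1, ← e2]
  exact h6

variable [Finite F] {h2 : (2 : F) = 0} {hω : ω ^ 2 + ω + 1 = 0}
variable {K : Subgroup (Matrix (Fin fJ3.P.d) (Fin fJ3.P.d) F)ˣ}
variable {u : Nat → (Matrix (Fin fJ3.P.d) (Fin fJ3.P.d) F)ˣ}
variable {P : G0 h2 hω →* Equiv.Perm (Fin 6156)}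

/-- The determinant on the group. -/
noncomputable def detH (h2 : (2 : F) = 0) (hω : ω ^ 2 + ω + 1 = 0) : G0 h2 hω →* F where
  toFun g := Matrix.det (((g : (M)ˣ) : M))
  map_one' := Matrix.det_one
  map_mul' a b := Matrix.det_mul (((a : (M)ˣ) : M)) (((b : (M)ˣ) : M))

theorem Act.det_eq_one (hA : Act K u P) (g : G0 h2 hω) : detH h2 hω g = 1 := by
  obtain ⟨hω3, _⟩ := ω_facts h2 hω
  have hsc : ∀ c : G0 h2 hω, P c = 1 → detH h2 hω c = 1 := by
    intro c hc
    have e : detH h2 hω c = Matrix.det (((c : (M)ˣ) : M)) := rfl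
    rw [e]
    rcases hA.ker_scalar hc with h | h | h
    · rw [h, Matrix.det_one]
    · rw [h, Matrix.det_smul, Matrix.det_one, mul_one, Fintype.card_fin]
      show ω ^ 9 = 1
      rw [show 9 = 3 * 3 by norm_num, pow_mul, hω3, one_pow]
    · rw [h, Matrix.det_smul, Matrix.det_one, mul_one, Fintype.card_fin]
      show (ω ^ 2) ^ 9 = 1
      rw [← pow_mul, show 2 * 9 = 3 * 6 by norm_num, pow_mul, hω3, one_pow]
  let N1 : Subgroup (G0 h2 hω) := (detH h2 hω).ker
  have hN1 : N1.Normal := MonoidHom.normal_ker _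
  let xt : G0 h2 hω := ⟨sF h2 hω 0, sF_mem h2 hω (by norm_num)⟩
  have hxN : xt ∈ N1 := by
    rw [MonoidHom.mem_ker]
    have h3 : ((xt : (M)ˣ) : M) * ((xt : (M)ˣ) : M) = 1 := by
      have := sgen_inv h2 hω sgen_ok0
      rw [x_inv, ← sgen_LR h2 hω sgen_ok0] at this
      exact this
    have h4 : detH h2 hω xt * detH h2 hω xt = 1 := by
      have e1 : detH h2 hω xt * detH h2 hω xt =
          Matrix.det (((xt : (M)ˣ) : M) * ((xt : (M)ˣ) : M)) :=
        (Matrix.det_mul (((xt : (M)ˣ) : M)) (((xt : (M)ˣ) : M))).symm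
      rw [e1, h3, Matrix.det_one]
    have h5 : (detH h2 hω xt - 1) * (detH h2 hω xt - 1) = 0 := by
      linear_combination h4 + (1 - detH h2 hω xt) * h2
    have h6 := mul_self_eq_zero.1 h5
    exact sub_eq_zero.1 h6
  have hxP : P xt ≠ 1 := by
    intro h
    obtain ⟨h3, h4⟩ := hA.pre.htab 0 (by norm_num) (sF h2 hω 0) (sF_val h2 hω (by norm_num)) 0
      (by norm_num)
    have h5 : P xt ⟨0, by norm_num⟩ = ⟨T1.tab 0 0, h3⟩ := (hA.hP xt _ _).2 h4
    rw [h] at h5
    have h6 : (0 : ℕ) = T1.tab 0 0 := congrArg Fin.val h5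
    rw [x_tab] at h6
    exact absurd h6 (by norm_num)
  have hn : (N1.map P.rangeRestrict).Normal :=
    Subgroup.Normal.map hN1 _ P.rangeRestrict_surjective
  rcases hA.simple.eq_bot_or_eq_top_of_normal _ hn with h | h
  · exfalso
    have : P.rangeRestrict xt ∈ N1.map P.rangeRestrict := ⟨xt, hxN, rfl⟩
    rw [h, Subgroup.mem_bot] at this
    exact hxP (congrArg Subtype.val this)
  · have : P.rangeRestrict g ∈ N1.map P.rangeRestrict := by
      rw [h]
      trivial
    obtain ⟨n, hn1, hn2⟩ := this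
    have hc : P (n⁻¹ * g) = 1 := by
      have h3 : P n = P g := congrArg Subtype.val hn2
      rw [map_mul, map_inv, h3, inv_mul_cancel]
    have h4 := hsc _ hc
    have hn3 : detH h2 hω n = 1 := hn1
    have h5 : g = n * (n⁻¹ * g) := by group
    rw [h5, map_mul, hn3, h4, one_mul]

/-- The elements of the group preserve the form. -/
theorem pres_all (g : G0 h2 hω) : ∀ a b : Fin 9 → F,
    Cfsg.hermForm 9 F 2 (Matrix.mulVec (((g : (M)ˣ) : M)) a) (Matrix.mulVec (((g : (M)ˣ) : M)) b) =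
      Cfsg.hermForm 9 F 2 a b := by
  have hle : G0 h2 hω ≤ Cfsg.preserving (Units.coeHom M) (Cfsg.hermForm 9 F 2) := by
    rw [closure_le]
    rintro s (rfl | rfl)
    · intro a b
      exact preserve_of h2 _ (gen_unitary h2 hω (by norm_num : 0 < 2)) a b
    · intro a b
      exact preserve_of h2 _ (gen_unitary h2 hω (by norm_num : 1 < 2)) a b
  exact hle g.2

theorem Act.det_eq_one' (hA : Act K u P) (g : G0 h2 hω) :
    Matrix.det (((((g : (M)ˣ) : M) : Matrix (Fin 9) (Fin 9) F))) = 1 := hA.det_eq_one g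

/-- The map to the special unitary group. -/
noncomputable def Act.toSU (hA : Act K u P) : G0 h2 hω →* Cfsg.SU 9 F 2 :=
  MonoidHom.mk' (fun g => ⟨⟨((g : (M)ˣ) : M), hA.det_eq_one' g⟩, pres_all g⟩) (by
    intro a b
    apply Subtype.ext
    apply Subtype.ext
    exact Units.val_mul (a : (M)ˣ) (b : (M)ˣ))

theorem Act.toSU_inj (hA : Act K u P) : Function.Injective hA.toSU := by
  intro a b h
  have h3 : ((a : (M)ˣ) : M) = ((b : (M)ˣ) : M) := congrArg (fun s : Cfsg.SU 9 F 2 => (s.1.1 : Matrix (Fin 9) (Fin 9) F)) h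
  exact Subtype.ext (Units.ext h3)

omit h2 hω in
/-- The realization in the special unitary group. -/
theorem su_realization (h2 : (2 : F) = 0) (hω : ω ^ 2 + ω + 1 = 0) :
    ∃ H : Subgroup (Cfsg.SU 9 F 2), Nat.card (Subgroup.center H) = 3 ∧
      Cfsg.IsJ3 (H ⧸ Subgroup.center H) := by
  obtain ⟨K, u, hP⟩ := exists_pre h2 hω
  obtain ⟨P, hA⟩ := hP.exists_act
  have hc := hA.center_eq
  let e : G0 h2 hω ≃* hA.toSU.range := MonoidHom.ofInjective hA.toSU_inj
  refine ⟨hA.toSU.range, ?_, ?_⟩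
  · rw [← Cover.card_center_congr e, hc]
    exact hA.ker_facts.1
  · obtain ⟨e1⟩ := Cover.quot_center_congr e
    obtain ⟨e2⟩ := Cover.quot_center_equiv P hc
    have e3 := e1.symm.trans e2
    have hs := hA.simple
    exact ⟨e3.isSimpleGroup, (Nat.card_congr e3.toEquiv).trans hA.card_range⟩

omit [Finite F] in
theorem exists_ω [Fintype F] (hF : Fintype.card F = 4) : ∃ ω : F, ω ^ 2 + ω + 1 = 0 := by
  classical
  have h1 : ∃ a : F, a ≠ 0 ∧ a ≠ 1 := by
    by_contra hno
    simp only [not_exists, not_and, not_not] at hno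
    have h3 : (Finset.univ : Finset F) ⊆ {0, 1} := by
      intro a _
      by_cases h : a = 0
      · simp [h]
      · simp [hno a h]
    have h4 := Finset.card_le_card h3
    have h5 : ({0, 1} : Finset F).card ≤ 2 := Finset.card_le_two
    rw [Finset.card_univ, hF] at h4
    omega
  obtain ⟨a, ha0, ha1⟩ := h1
  refine ⟨a, ?_⟩
  have h3 : a ^ (Fintype.card F - 1) = 1 := FiniteField.pow_card_sub_one_eq_one a ha0
  rw [hF] at h3
  have h4 : (a - 1) * (a ^ 2 + a + 1) = 0 := by
    have : a ^ 3 = 1 := h3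
    linear_combination this
  exact (mul_eq_zero.1 h4).resolve_left (sub_ne_zero.2 ha1)

end Cfsg.Agent.Lib.PermComp.Spor.J3
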